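import Cfsg.Agent.H11.JT
import Cfsg.Agent.H5.Gen
import Cfsg.Agent.H5.Ind
import Cfsg.Prelude.Def_LinearParabolics

/-! Standard parabolic subgroups of `GL_n`: Bruhat decomposition `bruhat`, double cosets (`inner_par`, `inner_young`), orders
(`card_par`, `index_par`), and the unipotent characters (`inner_uc`, `uc_one`). -/

set_option autoImplicit false

namespace H11
open Finset Matrix Equiv Cfsg H5 Function

variable {n : ℕ} {F : Type*} [Field F]

theorem inner_fpc {G W X : Type*} [Group G] [Fintype G] (A B : Subgroup G) (φ : W → G) (M : W → X)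
    (hs : ∀ g, ∃ w, ∃ a ∈ A, (a * φ w)⁻¹ * g ∈ B) (hM : ∀ w w', (∃ a ∈ A, (a * φ w)⁻¹ * φ w' ∈ B) ↔ M w = M w') :
    classInner (fixedPointCharacter B) (fixedPointCharacter A) = Nat.card (Set.range M) := by
  classical
  have h1 := fixedBy_eq_indFun_one (G := G) (G ⧸ A) ((1 : G) : G ⧸ A)
  rw [MulAction.stabilizer_quotient] at h1
  let π : W → MulAction.orbitRel.Quotient A (G ⧸ B) := fun w => Quotient.mk'' (φ w)
  have h0 : ∀ g g' : G, (Quotient.mk'' (g' : G ⧸ B) : MulAction.orbitRel.Quotient A (G ⧸ B)) = Quotient.mk'' (g : G ⧸ B) ↔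
      ∃ a ∈ A, (a * g)⁻¹ * g' ∈ B := fun g g' => by
    rw [Quotient.eq'', MulAction.orbitRel_apply]
    exact ⟨fun ⟨a, h⟩ => ⟨a, a.2, QuotientGroup.eq.1 h⟩, fun ⟨a, h, h'⟩ => ⟨⟨a, h⟩, QuotientGroup.eq.2 h'⟩⟩
  have h2 : Surjective π := fun x => by
    obtain ⟨x, rfl⟩ := Quotient.mk''_surjective x
    obtain ⟨x, rfl⟩ := QuotientGroup.mk_surjective x
    exact (hs x).imp fun w h => ((h0 _ _).2 h).symm
  have h3 : Setoid.ker M = Setoid.ker π := Setoid.ext fun w w' => (hM w w').symm.trans ((h0 _ _).symm.trans eq_comm)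
  rw [← Nat.card_congr (Setoid.quotientKerEquivRange M), h3, Nat.card_congr (Setoid.quotientKerEquivOfSurjective π h2)]
  unfold fixedPointCharacter
  rw [h1, frobenius_reciprocity' _ _ (isCharacter_fixedBy _).isClassFunction,
    classInner_one_right, inv_mul_eq_iff_eq_mul₀ (Nat.cast_ne_zero.2 Nat.card_pos.ne'), mul_comm]
  have := MulAction.sum_card_fixedBy_eq_card_orbits_mul_card_group A (G ⧸ B)
  simp only [← Nat.card_eq_fintype_card] at this
  exact_mod_cast this

theorem exists_perm_fib {α β X : Type*} [Fintype α] [Fintype β] [DecidableEq X] {f : α → X} {g : β → X}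
    (h : ∀ x, #{i | f i = x} = #{i | g i = x}) : ∃ e : α ≃ β, ∀ i, g (e i) = f i :=
  ⟨_, ofFiberEquiv_map fun x => Fintype.equivOfCardEq (by simpa [Fintype.card_subtype] using h x)⟩

def MM (a b : Fin n → Fin n) (σ : Perm (Fin n)) (s t : Fin n) : ℕ := #{j | (a (σ j), b j) = (s, t)}

theorem MM_iff {a b : Fin n → Fin n} {σ τ : Perm (Fin n)} : MM a b σ = MM a b τ ↔
    ∃ α : Perm (Fin n), (∀ i, a (α i) = a i) ∧ ∀ j, b (((α * σ)⁻¹ * τ) j) = b j := by
  refine ⟨fun h => ?_, fun ⟨α, h1, h2⟩ => funext₂ fun s t => (card_equiv ((α * σ)⁻¹ * τ) fun j => ?_).symm⟩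
  · obtain ⟨β, e⟩ := exists_perm_fib (f := fun j => (a (τ j), b j)) (g := fun j => (a (σ j), b j)) fun x =>
      (congrFun₂ h x.1 x.2).symm
    simp only [Prod.mk.injEq] at e
    exact ⟨τ * β⁻¹ * σ⁻¹, fun i => by simp [← (e _).1], fun j => by simp [e]⟩
  · simp only [mem_filter, mem_univ, true_and, h2]
    rw [← h1 (σ _)]; simp

theorem card_MM (a b : Fin n → Fin n) : Nat.card (Set.range (MM a b)) = NM (fun s => #{i | a i = s}) fun t => #{i | b i = t} := by
  refine Nat.card_congr (subtypeEquivRight fun M => ⟨?_, fun ⟨h1, h2⟩ => ?_⟩)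
  · rintro ⟨σ, rfl⟩
    refine ⟨fun s => ?_, fun t => ?_⟩ <;> beta_reduce
    · rw [← card_equiv σ (s := {j | a (σ j) = s}) (t := {i | a i = s}) (by simp), card_eq_sum_card_fiberwise (f := b) (t := univ) (by simp)]
      simp [MM, filter_filter]
    · rw [card_eq_sum_card_fiberwise (f := fun j => a (σ j)) (t := univ) (by simp)]
      simp [MM, filter_filter, and_comm]
  beta_reduce at h1 h2
  have k : ∀ (P : Fin n × Fin n → Prop) [DecidablePred P],
      #{i : Σ x : Fin n × Fin n, Fin (M x.1 x.2) | P i.1} = ∑ x with P x, M x.1 x.2 := fun P _ => by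
    rw [← univ_sigma_univ, filter_sigma, card_sigma, sum_filter]
    exact sum_congr rfl fun x _ => by split_ifs with h <;> simp [h]
  obtain ⟨e, he⟩ := exists_perm_fib (f := fun i : Σ x : Fin n × Fin n, Fin (M x.1 x.2) => i.1.1) (g := a) fun s => by
    rw [k (·.1 = s), ← h1, sum_filter, Fintype.sum_prod_type_right]; simp
  obtain ⟨e', he'⟩ := exists_perm_fib (f := fun i : Σ x : Fin n × Fin n, Fin (M x.1 x.2) => i.1.2) (g := b) fun s => by
    rw [k (·.2 = s), ← h2, sum_filter, Fintype.sum_prod_type]; simp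
  refine ⟨e'.symm.trans e, funext₂ fun s t => ?_⟩
  rw [MM, ← card_equiv e' (s := {i | i.1 = (s, t)}) (by simp [he, he', Prod.ext_iff]), k (· = (s, t))]
  simp [filter_eq']

def pm (F : Type*) [Field F] : Perm (Fin n) →* GL (Fin n) F := (permMatrixHom (R := F)).toHomUnits

theorem pm_apply (σ : Perm (Fin n)) (i j : Fin n) : (pm F σ).1 i j = if i = σ j then 1 else 0 := by
  change σ⁻¹.permMatrix F i j = _
  simp [PEquiv.toMatrix_apply, symm_apply_eq, toPEquiv_apply]

theorem bruhat (g : GL (Fin n) F) : ∃ (σ : Perm (Fin n)) (b b' : GL (Fin n) F), b.1.BlockTriangular id ∧ b'.1.BlockTriangular id ∧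
    g * b' = b * pm F σ := by
  have h0 : ∃ N, ∃ (f : Fin n → ℕ) (b : GL (Fin n) F), ∑ j, f j = N ∧ b.1.BlockTriangular id ∧ ∀ i j : Fin n, f j ≤ i → (g * b).1 i j = 0 :=
    ⟨_, fun _ => n, 1, rfl, blockTriangular_one, fun i j h => absurd i.2 h.not_gt⟩
  classical
  obtain ⟨f, b, h1, h2, h3⟩ := Nat.find_spec h0
  have key : ∀ j (c : GL (Fin n) F), c.1.BlockTriangular id → (∀ i k, k ≠ j → (g * b * c).1 i k = (g * b).1 i k) →
      ∃ i : Fin n, f j ≤ i + 1 ∧ (g * b * c).1 i j ≠ 0 := fun j c h4 h5 => by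
    by_contra! h
    have h6 : 0 < f j := Nat.pos_of_ne_zero fun e => (g * b * c).det_ne_zero
      (det_eq_zero_of_column_eq_zero j fun i => h i (by omega))
    refine Nat.find_min h0 (m := ∑ k, update f j (f j - 1) k) ?_ ⟨_, b * c, rfl, h2.mul h4, fun i k e => ?_⟩
    · exact h1 ▸ sum_lt_sum (fun k _ => by by_cases e : k = j <;> simp [e]) ⟨j, mem_univ j, by simpa⟩
    · rw [← mul_assoc]
      by_cases e' : k = j
      · exact e' ▸ h i (by simp [e'] at e; omega)
      · rw [h5 i k e', h3 i k (by simpa [e'] using e)]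
  choose σ h4 h5 using fun j => key j 1 blockTriangular_one (by simp)
  rw [mul_one] at h5
  have h6 : ∀ j, f j = σ j + 1 := fun j => (h4 j).antisymm (not_le.1 fun e => h5 j (h3 _ _ e))
  have h7 : ∀ j k, j < k → σ j ≠ σ k := fun j k e e' => by
    let t := -(g * b).1 (σ j) k / (g * b).1 (σ j) j
    obtain ⟨i, h8, h9⟩ := key k (.mkOfDetNeZero (transvection j k t) (by simp [det_transvection_of_ne _ _ e.ne]))
      (blockTriangular_transvection e.le t) fun i l h => mul_transvection_apply_of_ne _ _ _ _ h _ _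
    refine h9 ((mul_transvection_apply_same _ _ _ _ _).trans ?_)
    obtain rfl | h := (show σ k ≤ i from Nat.le_of_succ_le_succ ((h6 k).ge.trans h8)).eq_or_lt
    · simp only [t, e']; rw [div_mul_cancel₀ _ (e' ▸ h5 j), add_neg_cancel]
    · rw [h3 i k (h6 k ▸ h), h3 i j (by rw [h6, e']; exact h), mul_zero, add_zero]
  let τ := ofBijective σ (Finite.injective_iff_bijective.1 (Function.Injective.of_lt_imp_ne h7))
  refine ⟨τ, g * b * pm F τ⁻¹, b, fun i j e => ?_, h2, by simp⟩
  obtain ⟨j, rfl⟩ := τ.surjective j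
  rw [Units.val_mul, mul_apply]
  simpa [pm_apply, -Units.val_mul, -map_inv, eq_symm_apply] using h3 i j (h6 j ▸ e)

theorem card_supp [Fintype F] {ι : Type*} [Fintype ι] (P : ι → Prop) [DecidablePred P] :
    Nat.card {v : ι → F // ∀ j, ¬ P j → v j = 0} = Fintype.card F ^ #{j | P j} := by
  rw [← Fintype.card_subtype, ← Nat.card_eq_fintype_card, ← Nat.card_eq_fintype_card, ← Nat.card_fun]
  exact Nat.card_congr ⟨fun v j => v.1 j, fun v => ⟨fun j => if h : P j then v ⟨j, h⟩ else 0, fun j h => dif_neg h⟩,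
    fun v => Subtype.ext (funext fun j => by by_cases h : P j <;> simp [h, v.2]), fun v => by simp [Subtype.property]⟩

theorem bt_mulVec {a : Fin n → Fin n} {p : Matrix (Fin n) (Fin n) F} (h : p.BlockTriangular a) {s : Fin n} {v : Fin n → F}
    (hv : ∀ i, ¬ a i ≤ s → v i = 0) (i : Fin n) (hi : ¬ a i ≤ s) : (p *ᵥ v) i = 0 :=
  show ∑ j, p i j * v j = 0 from sum_eq_zero fun j _ => by
    by_cases e : a j ≤ s
    · simp [h (e.trans_lt (not_le.1 hi))]
    · simp [hv j e]

theorem eq_of_cum {α X : Type*} [Fintype α] [Fintype X] [PartialOrder X] [DecidableEq X] [DecidableLE X] {f g : α → X}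
    (h : ∀ x, #{i | f i ≤ x} = #{i | g i ≤ x}) (x : X) : #{i | f i = x} = #{i | g i = x} := by
  induction x using WellFoundedLT.induction with | ind x ih =>
  have k : ∀ f : α → X, #{i | f i ≤ x} = #{i | f i = x} + ∑ y ∈ (univ.filter (· ≤ x)).erase x, #{i | f i = y} := fun f => by
    rw [add_sum_erase _ (fun y => #{i | f i = y}) (by simp), card_eq_sum_card_fiberwise (f := f) (t := univ.filter (· ≤ x))
      fun i => by simp]
    exact sum_congr rfl fun y hy => by rw [filter_filter]; congr; ext i; simp; rintro rfl; simpa using hy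
  have := h x
  rwa [k, k, sum_congr rfl fun y hy => ih y (by simp at hy; exact lt_of_le_of_ne hy.2 hy.1), add_left_inj] at this

theorem inner_bt [Fintype F] [DecidableEq F] {a b : Fin n → Fin n} (ha : Monotone a) (hb : Monotone b) {A B : Subgroup (GL (Fin n) F)}
    (hA : ∀ g, g ∈ A ↔ g.1.BlockTriangular a) (hB : ∀ g, g ∈ B ↔ g.1.BlockTriangular b) :
    classInner (fixedPointCharacter B) (fixedPointCharacter A) = NM (fun s => #{i | a i = s}) fun t => #{i | b i = t} := by
  rw [← card_MM]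
  have k : ∀ σ τ, (∃ p ∈ A, (p * pm F σ)⁻¹ * pm F τ ∈ B) → ∀ x : Fin n × Fin n,
      #{j | (a (τ j), b j) ≤ x} ≤ #{j | (a (σ j), b j) ≤ x} := fun σ τ ⟨p, h1, h2⟩ x => by
    rw [← Nat.pow_le_pow_iff_right (Fintype.one_lt_card (α := F)), ← card_supp, ← card_supp]
    refine Nat.card_le_card_of_injective (fun v => ⟨((p * pm F σ)⁻¹ * pm F τ).1 *ᵥ v.1, fun j h => ?_⟩) fun v w e =>
      Subtype.ext (mulVec_injective_iff_isUnit.2 (Units.isUnit _) (congrArg Subtype.val e))
    by_cases e : b j ≤ x.2; swap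
    · exact bt_mulVec ((hB _).1 h2) (fun i h => v.2 i fun h' => h h'.2) j e
    have := bt_mulVec ((hA _).1 (inv_mem h1)) (s := x.1) (v := (pm F τ).1 *ᵥ v.1) (fun i h => by
      obtain ⟨i, rfl⟩ := τ.surjective i
      simpa [mulVec, dotProduct, pm_apply] using v.2 i fun h' => h h'.1) (σ j) fun h' => h ⟨h', e⟩
    rw [_root_.mul_inv_rev, ← map_inv, mul_assoc, Units.val_mul, Units.val_mul, ← mulVec_mulVec, ← mulVec_mulVec]
    generalize (p⁻¹).1 *ᵥ _ = w at this
    simpa [mulVec, dotProduct, pm_apply, eq_symm_apply, -map_inv, eq_comm (a := σ j)] using this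
  refine inner_fpc A B (pm F) _ (fun g => ?_) fun σ τ => ⟨fun h => funext₂ fun s t => eq_of_cum (fun x => (k _ _ ?_ x).antisymm
    (k _ _ h x)) _, fun h => ?_⟩
  · obtain ⟨σ, c, c', h1, h2, h⟩ := bruhat g
    exact ⟨σ, c, (hA _).2 fun i j e => h1 (ha.reflect_lt e), by
      simpa [← h] using inv_mem ((hB _).2 fun i j e => h2 (hb.reflect_lt e))⟩
  · obtain ⟨p, h1, h2⟩ := h
    exact ⟨p⁻¹, inv_mem h1, by simpa [mul_assoc] using inv_mem h2⟩
  · obtain ⟨α, h1, h2⟩ := MM_iff.1 h
    refine ⟨pm F α, (hA _).2 fun i j e => by rw [pm_apply, if_neg]; rintro rfl; simp [h1] at e, ?_⟩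
    rw [← map_mul, ← map_inv, ← map_mul, hB]
    exact fun i j e => by rw [pm_apply, if_neg]; rintro rfl; rw [h2] at e; simp at e

theorem exists_lab {μ : Fin n → ℕ} (h : ∑ i, μ i = n) : ∃ (a : Fin n → Fin n) (e : (Σ s, Fin (μ s)) ≃ Fin n),
    (∀ i, compLabel μ i = a i) ∧ Monotone a ∧ (∀ k, a (e k) = k.1) ∧ (∀ k, #{i | a i < k.1} + k.2 = e k) ∧
      ∀ s, #{i | a i = s} = μ s := by
  let e := finSigmaFinEquiv.trans (finCongr h)
  have h0 : ∀ k, (e k).1 = ∑ i with i < k.1, μ i + k.2 := fun k => by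
    simp only [e, trans_apply, finCongr_apply, Fin.val_cast, finSigmaFinEquiv_apply, add_left_inj]
    exact sum_bij (fun i _ => Fin.castLE k.1.2.le i) (fun i _ => mem_filter.2 ⟨mem_univ _, i.2⟩) (by simp)
      (fun i h => ⟨⟨i, by simpa using h⟩, by simp⟩) (by simp)
  have h1 : ∀ i, compLabel μ i = (e.symm i).1 := fun i => by
    obtain ⟨k, rfl⟩ := e.surjective i
    rw [symm_apply_apply, ← Fin.card_Iio, compLabel, h0]
    congr 1; ext j
    simp only [mem_filter, mem_univ, true_and, mem_Iio]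
    refine ⟨fun h => not_le.1 fun h' => h.not_gt ?_, fun h => le_add_right (sum_le_sum_of_subset fun l => ?_)⟩
    · refine (Nat.add_lt_add_left k.2.2 _).trans_le ?_
      rw [add_comm, ← sum_insert (by simp)]
      exact sum_le_sum_of_subset fun l => by simp; rintro (rfl | e); exacts [h', e.le.trans h']
    · simpa using fun e => e.trans_lt h
  have h2 : ∀ (P : Fin n → Prop) [DecidablePred P], #{i | P (e.symm i).1} = ∑ s with P s, μ s := fun P _ => by
    rw [card_equiv e.symm (t := {i | P i.1}) (by simp), ← univ_sigma_univ, filter_sigma, card_sigma, sum_filter]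
    exact sum_congr rfl fun x _ => by split_ifs with h <;> simp [h]
  refine ⟨fun i => (e.symm i).1, e, h1, fun i j hij => ?_, by simp, fun k => by rw [h2 (· < k.1), h0], fun s => by
    simp [h2 (· = s), filter_eq']⟩
  rw [Fin.le_def, ← h1, ← h1]
  exact card_le_card fun l => by simpa using fun e => e.trans hij

theorem mem_par {μ : Fin n → ℕ} {a : Fin n → Fin n} (h : ∀ i, compLabel μ i = a i) (g : GL (Fin n) F) :
    g ∈ parabolicGL n F μ ↔ g.1.BlockTriangular a :=
  forall₂_congr fun i j => by rw [h, h]; rfl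

theorem inner_par [Fintype F] [DecidableEq F] {μ ν : Fin n → ℕ} (hμ : ∑ i, μ i = n) (hν : ∑ i, ν i = n) :
    classInner (fixedPointCharacter (parabolicGL n F μ)) (fixedPointCharacter (parabolicGL n F ν)) = NM ν μ := by
  obtain ⟨a, -, h1, h2, -, -, h3⟩ := exists_lab hν
  obtain ⟨b, -, h4, h5, -, -, h6⟩ := exists_lab hμ
  simpa only [h3, h6] using inner_bt h2 h5 (mem_par h1) (mem_par (F := F) h4)

theorem inner_young {μ ν : Fin n → ℕ} (hμ : ∑ i, μ i = n) (hν : ∑ i, ν i = n) :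
    classInner (fixedPointCharacter (youngSubgroup μ)) (fixedPointCharacter (youngSubgroup ν)) = NM ν μ := by
  obtain ⟨a, -, h1, -, -, -, h3⟩ := exists_lab hν
  obtain ⟨b, -, h4, -, -, -, h6⟩ := exists_lab hμ
  rw [inner_fpc _ _ id (MM a b) (fun g => ⟨g, 1, one_mem _, by simp⟩) fun σ τ => ?_, card_MM]
  · simp only [h3, h6]
  · simp [MM_iff, youngSubgroup, h1, h4, Fin.val_inj]

theorem card_chain [Fintype F] {V : Type*} [AddCommGroup V] [Module F V] [Finite V] {k : ℕ} (W : Fin k → Submodule F V)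
    (hW : Antitone W) : Nat.card {v : Fin k → V // LinearIndependent F v ∧ ∀ i, v i ∈ W i} =
      ∏ i, (Nat.card (W i) - Fintype.card F ^ (k - 1 - i)) := by
  classical
  have := Fintype.ofFinite V
  induction k with
  | zero => simp [linearIndependent_empty_type]
  | succ k ih =>
    have e : {v : Fin (k + 1) → V // LinearIndependent F v ∧ ∀ i, v i ∈ W i} ≃
        Σ s : {v : Fin k → V // LinearIndependent F v ∧ ∀ i, v i ∈ W i.succ}, {x // x ∈ W 0 ∧ x ∉ Submodule.span F (Set.range s.1)} :=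
      ⟨fun s => ⟨⟨Fin.tail s.1, (linearIndependent_finSucc.1 s.2.1).1, fun i => s.2.2 _⟩, s.1 0, s.2.2 0,
        (linearIndependent_finSucc.1 s.2.1).2⟩, fun s => ⟨Fin.cons s.2.1 s.1.1, linearIndependent_finCons.2 ⟨s.1.2.1, s.2.2.2⟩,
          Fin.cases s.2.2.1 s.1.2.2⟩, fun _ => by simp, fun _ => rfl⟩
    rw [Nat.card_congr e, Nat.card_sigma, Fin.prod_univ_succ, sum_congr rfl (g := fun _ => Nat.card (W 0) - Fintype.card F ^ k),
      sum_const, card_univ, ← Nat.card_eq_fintype_card, ih _ fun i j h => hW (Fin.succ_le_succ_iff.2 h), smul_eq_mul, mul_comm]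
    · simp [Nat.sub_sub, add_comm]
    rintro ⟨s, h1, h2⟩ -
    have h3 : Submodule.span F (Set.range s) ≤ W 0 := Submodule.span_le.2 (by rintro _ ⟨i, rfl⟩; exact hW (Fin.zero_le _) (h2 i))
    have h4 := Module.natCard_eq_pow_finrank (K := F) (V := Submodule.span F (Set.range s))
    rw [finrank_span_eq_card h1, Fintype.card_fin, Nat.card_eq_fintype_card (α := F)] at h4
    rw [← h4]
    exact Set.ncard_diff (s := (Submodule.span F (Set.range s) : Set V)) (t := (W 0 : Set V)) h3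

variable [Fintype F]
local notation "q" => Fintype.card F

theorem pow_sub_pow_geom (d t : ℕ) : q ^ (d + t) - q ^ d = q ^ d * (q - 1) * ∑ l ∈ range t, q ^ l := by
  obtain ⟨r, h⟩ : ∃ r, q = r + 1 := ⟨q - 1, by have := Fintype.card_pos (α := F); omega⟩
  rw [h, pow_add, ← geom_sum_mul_add r t, Nat.add_sub_cancel, mul_add, mul_one, Nat.add_sub_cancel]; ring

theorem card_par {μ : Fin n → ℕ} (h : ∑ i, μ i = n) : Nat.card (parabolicGL n F μ) =
    (∏ i : Fin n, q ^ (n - 1 - i) * (q - 1)) * ∏ s, ∏ t ∈ range (μ s), ∑ l ∈ range (t + 1), q ^ l := by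
  obtain ⟨a, e, h1, h2, h3, h4, -⟩ := exists_lab h
  let W : Fin n → Submodule F (Fin n → F) := fun i => .pi {j | a j < a i} fun _ => ⊥
  have e' : parabolicGL n F μ ≃ {v : Fin n → Fin n → F // LinearIndependent F v ∧ ∀ i, v i ∈ W i} :=
    ⟨fun g => ⟨g.1.1, linearIndependent_rows_iff_isUnit.2 g.1.isUnit, fun i j h => (mem_par h1 _).1 g.2 h⟩,
      fun v => ⟨(linearIndependent_rows_iff_isUnit.1 v.2.1).unit, (mem_par h1 _).2 fun i j h => v.2.2 i j h⟩,
      fun g => by ext; rfl, fun v => rfl⟩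
  rw [Nat.card_congr e', card_chain W fun i j h v hv l hl => hv l (hl.trans_le (h2 h))]
  simp only [← Fin.prod_univ_eq_prod_range (fun t => ∑ l ∈ range (t + 1), q ^ l)]
  rw [← Fintype.prod_sigma' fun s (t : Fin (μ s)) => ∑ l ∈ range (t + 1), q ^ l, ← e.prod_comp, ← e.prod_comp, ← prod_mul_distrib]
  refine prod_congr rfl fun k _ => ?_
  rw [← pow_sub_pow_geom, show n - 1 - e k + (k.2 + 1) = #{j | ¬ a j < k.1} by
    have := card_filter_add_card_filter_not (s := univ) (a · < k.1); have := h4 k; have := (e k).2; simp at *; omega, ← card_supp, ← h3 k]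
  exact congrArg (· - _) (Nat.card_congr (subtypeEquivRight (by simp [W])))

theorem index_par {μ : Fin n → ℕ} (h : ∑ i, μ i = n) : Nat.card (GL (Fin n) F ⧸ parabolicGL n F μ) *
    ∏ s, ∏ t ∈ range (μ s), ∑ l ∈ range (t + 1), q ^ l = ∏ t ∈ range n, ∑ l ∈ range (t + 1), q ^ l := by
  have h1 := Fintype.one_lt_card (α := F)
  refine Nat.eq_of_mul_eq_mul_left (n := ∏ i : Fin n, q ^ (n - 1 - i) * (q - 1)) (prod_pos fun i _ =>
    mul_pos (pow_pos (zero_lt_one.trans h1) _) (Nat.sub_pos_of_lt h1)) ?_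
  rw [mul_left_comm, ← card_par h, ← Subgroup.card_eq_card_quotient_mul_card_subgroup, card_GL_field, ← Equiv.prod_comp Fin.revPerm,
    ← Fin.prod_univ_eq_prod_range (fun t => ∑ l ∈ range (t + 1), q ^ l), ← prod_mul_distrib]
  refine prod_congr rfl fun k _ => ?_
  rw [← pow_sub_pow_geom]; have := k.2
  congr 2 <;> (try simp only [Fin.revPerm_apply, Fin.val_rev]) <;> omega

theorem uc_eq (ν : Fin n → ℕ) : unipotentCharacterGL n F ν = ∑ κ : Perm (Fin n),
    (if ∀ i, (κ i).1 ≤ ν i + i then (Perm.sign κ : ℤ) else 0) • fixedPointCharacter (parabolicGL n F fun i => ν i + i - κ i) := by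
  ext g; simp [unipotentCharacterGL, -smul_eq_mul, ite_smul, ite_apply]

theorem sum_comp_eq {ν : Fin n → ℕ} (h : ∑ i, ν i = n) {κ : Perm (Fin n)} (hκ : ∀ i, (κ i).1 ≤ ν i + i) :
    ∑ i, (ν i + i - κ i) = n := by
  rw [sum_tsub_distrib _ fun i _ => hκ i, sum_add_distrib, h, Equiv.sum_comp κ (fun i => i.1), Nat.add_sub_cancel]

theorem inner_uc [DecidableEq F] {ν μ : Fin n → ℕ} (h1 : Monotone ν) (h2 : ∑ i, ν i = n) (h3 : Monotone μ) (h4 : ∑ i, μ i = n) :
    classInner (unipotentCharacterGL n F μ) (unipotentCharacterGL n F ν) = if ν = μ then 1 else 0 := by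
  have := orth (h1.add_strictMono Fin.val_strictMono) (h3.add_strictMono Fin.val_strictMono)
  simp only [funext_iff, add_left_inj] at this
  simp only [uc_eq, classInner_sum_left, classInner_sum_right, classInner_zsmul_left, classInner_zsmul_right, funext_iff, mul_sum]
  rw [show (if ∀ i, ν i = μ i then (1 : ℂ) else 0) = ((if ∀ i, ν i = μ i then 1 else 0 : ℤ) : ℂ) by simp, ← this]
  push_cast
  refine sum_congr rfl fun κ _ => sum_congr rfl fun κ' _ => ?_
  by_cases a : ∀ i, (κ i).1 ≤ ν i + i <;> by_cases b : ∀ i, (κ' i).1 ≤ μ i + i <;> simp [a, b, -not_forall]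
  rw [inner_par (sum_comp_eq h4 b) (sum_comp_eq h2 a), mul_assoc]

theorem uc_one {ν : Fin n → ℕ} (h : ∑ i, ν i = n) : unipotentCharacterGL n F ν 1 * (q : ℂ) ^ (n * (n - 1) * (n - 2) / 6) *
      ∏ i : Fin n, ∏ j ∈ range (ν i + i), ((∑ l ∈ range (j + 1), q ^ l : ℕ) : ℂ) =
    (∏ j ∈ range n, ((∑ l ∈ range (j + 1), q ^ l : ℕ) : ℂ)) * ∏ i : Fin n, ∏ j with i < j,
      (((∑ l ∈ range (ν j + j), q ^ l : ℕ) : ℂ) - ((∑ l ∈ range (ν i + i), q ^ l : ℕ) : ℂ)) := by
  set Q : ℕ → ℂ := fun m => ((∑ l ∈ range m, q ^ l : ℕ) : ℂ) with hQ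
  have h1 : ∀ l j, j ≤ l → (∏ k ∈ range j, (Q l - Q k)) * ∏ t ∈ range (l - j), Q (t + 1) =
      (q : ℂ) ^ j.choose 2 * ∏ t ∈ range l, Q (t + 1) := fun l j e => by
    induction j with
    | zero => simp
    | succ j ih =>
      obtain ⟨d, rfl⟩ := Nat.exists_eq_add_of_le e
      rw [Nat.choose_succ_succ', pow_add, mul_assoc, ← ih (by omega), prod_range_succ, show j + 1 + d - j = d + 1 by omega,
        prod_range_succ, Nat.add_sub_cancel_left, show Q (j + 1 + d) - Q j = q ^ j * Q (d + 1) by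
          simp only [hQ, add_assoc, sum_range_add, add_comm 1 d, pow_add, ← mul_sum]; push_cast; ring]
      simp; ring
  have h2 : ∑ j ∈ range n, j.choose 2 = n * (n - 1) * (n - 2) / 6 := by
    rw [show n * (n - 1) * (n - 2) / 6 = n.choose 3 by
      simp [Nat.choose_eq_descFactorial_div_factorial, Nat.factorial, mul_comm, mul_assoc]]
    clear h ν; induction n with
    | zero => rfl
    | succ n ih => rw [sum_range_succ, ih, Nat.choose_succ_succ', add_comm]
  have h3 := det_eval_matrixOfPolynomials_eq_det_vandermonde (fun i => Q (ν i + i))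
    (fun j => ∏ k ∈ range j, (Polynomial.X - Polynomial.C (Q k))) (by simp) fun _ => Polynomial.monic_prod_X_sub_C _ _
  simp only [det_vandermonde, ← filter_lt_eq_Ioi] at h3
  change _ * ∏ i : Fin n, ∏ j ∈ range (ν i + i), Q (j + 1) = (∏ j ∈ range n, Q (j + 1)) * ∏ i : Fin n, ∏ j with i < j,
    (Q (ν j + j) - Q (ν i + i))
  rw [h3, ← det_transpose, det_apply', unipotentCharacterGL, sum_mul, sum_mul, mul_sum]
  refine sum_congr rfl fun κ _ => ?_
  simp only [transpose_apply, of_apply, Polynomial.eval_prod, Polynomial.eval_sub, Polynomial.eval_X, Polynomial.eval_C]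
  split_ifs with a
  · have h4 := congrArg (Nat.cast (R := ℂ)) (index_par (F := F) (sum_comp_eq h a))
    rw [Nat.cast_prod] at h4
    rw [← h4, ← h2, ← Fin.sum_univ_eq_sum_range (fun j => j.choose 2), ← Equiv.sum_comp κ, ← prod_pow_eq_pow_sum, mul_assoc,
      ← prod_mul_distrib, ← prod_congr rfl fun i _ => h1 _ _ (a i), prod_mul_distrib]
    simp [fixedPointCharacter, hQ]; ring
  · obtain ⟨i, hi⟩ := not_forall.1 a
    rw [prod_eq_zero (f := fun i => ∏ k ∈ range (κ i), (Q (ν i + i) - Q k)) (mem_univ i)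
      (prod_eq_zero (mem_range.2 (not_le.1 hi)) (sub_self _))]; simp

theorem isIrr_uc {ν : Fin n → ℕ} (h1 : Monotone ν) (h2 : ∑ i, ν i = n) : IsIrrCharacter _ (unipotentCharacterGL n F ν) := by
  classical
  have h : IsGeneralizedCharacter _ (unipotentCharacterGL n F ν) :=
    uc_eq (F := F) ν ▸ Cfsg.IsGeneralizedCharacter.sum _ fun _ _ => (isCharacter_fixedBy _).isGen.zsmul _
  refine h.isIrr_of_classInner_self_of_apply_one (by simp [inner_uc h1 h2 h1 h2]) ?_
  have h3 := uc_one (F := F) h2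
  have h4 : ∀ i : Fin n, ∏ j with i < j, (((∑ l ∈ range (ν j + j), q ^ l : ℕ) : ℂ) - ((∑ l ∈ range (ν i + i), q ^ l : ℕ) : ℂ)) =
      (∏ j with i < j, (∑ l ∈ range (ν j + j), q ^ l - ∑ l ∈ range (ν i + i), q ^ l) : ℕ) := fun i => by
    rw [Nat.cast_prod]
    exact prod_congr rfl fun j hj => (Nat.cast_sub (sum_le_sum_of_subset (range_mono
      ((h1.add_strictMono Fin.val_strictMono) (mem_filter.1 hj).2).le))).symm
  have := Fintype.card_pos (α := F)
  simp only [h4, mul_assoc, ← Nat.cast_prod, ← Nat.cast_pow, ← Nat.cast_mul] at h3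
  rw [eq_div_of_mul_eq (Nat.cast_ne_zero.2 (mul_pos (by positivity) (prod_pos fun _ _ => prod_pos fun _ _ =>
    sum_pos (fun _ _ => by positivity) ⟨0, by simp⟩)).ne') h3, Complex.div_natCast_re, Complex.natCast_re]
  exact div_nonneg (Nat.cast_nonneg _) (Nat.cast_nonneg _)
end H11
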