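import Mathlib
/-! Abstract Shintani descent: elementary identities for an automorphism `σ` and its powers;
`card_fib` (constant fibres, no finiteness), `card_lang` (fibres of the Lang map). -/
namespace H11
variable {X : Type*} [Group X] {σ : MulAut X} {e : ℕ}

theorem card_fib {Ω A B : Type*} (f : Ω → A) (h : ∀ a, Nonempty ({ω // f ω = a} ≃ B)) :
    Nat.card Ω = Nat.card A * Nat.card B := by
  rw [← Nat.card_prod]
  exact Nat.card_congr ((Equiv.sigmaFiberEquiv f).symm.trans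
    (Equiv.sigmaEquivProdOfEquiv fun a => (h a).some))

theorem shin_comm (x : X) : σ ((σ ^ e) x) = (σ ^ e) (σ x) := by
  rw [← MulAut.mul_apply, ← MulAut.mul_apply, ← pow_succ, ← pow_succ']

theorem shin_fix {x : X} (h : σ x = x) (e : ℕ) : (σ ^ e) x = x := by
  induction e with
  | zero => rfl
  | succ e ih => rw [pow_succ, MulAut.mul_apply, h, ih]

theorem shin_prod (a : X) (d : ℕ) :
    ((List.range d).map (fun i => (σ ^ i) (a * (σ a)⁻¹))).prod = a * ((σ ^ d) a)⁻¹ := by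
  induction d with
  | zero => simp
  | succ d ih =>
    rw [List.range_succ, List.map_append, List.prod_append, ih]
    simp [pow_succ, mul_assoc]

theorem shin_iff (a : X) : (σ ^ e) (a * (σ a)⁻¹) = a * (σ a)⁻¹ ↔
    σ (((σ ^ e) a)⁻¹ * a) = ((σ ^ e) a)⁻¹ * a := by
  simp only [map_mul, map_inv, shin_comm]
  refine ⟨fun h => ?_, fun h => ?_⟩
  · calc _ = ((σ ^ e) a)⁻¹ * ((σ ^ e) a * ((σ ^ e) (σ a))⁻¹) * σ a := by group
      _ = _ := by rw [h]; group
  · calc _ = (σ ^ e) a * (((σ ^ e) (σ a))⁻¹ * σ a) * (σ a)⁻¹ := by group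
      _ = _ := by rw [h]; group

theorem shin_twist (a b k : X) : b * (σ b)⁻¹ = k * (a * (σ a)⁻¹) * (σ k)⁻¹ ↔
    σ (b⁻¹ * k * a) = b⁻¹ * k * a := by
  simp only [map_mul, map_inv]
  refine ⟨fun h => ?_, fun h => ?_⟩
  · calc _ = b⁻¹ * (b * (σ b)⁻¹) * σ k * σ a := by group
      _ = _ := by rw [h]; group
  · calc _ = b * ((σ b)⁻¹ * σ k * σ a) * (σ a)⁻¹ * (σ k)⁻¹ := by group
      _ = _ := by rw [h]; group

theorem shin_conj {a b h : X} (hh : σ h = h) : (σ ^ e) (b * h * a⁻¹) = b * h * a⁻¹ ↔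
    ((σ ^ e) b)⁻¹ * b = h * (((σ ^ e) a)⁻¹ * a) * h⁻¹ := by
  simp only [map_mul, map_inv, shin_fix hh]
  refine ⟨fun h' => ?_, fun h' => ?_⟩
  · calc _ = ((σ ^ e) b)⁻¹ * (b * h * a⁻¹) * a * h⁻¹ := by group
      _ = _ := by rw [← h']; group
  · calc _ = (σ ^ e) b * (h * (((σ ^ e) a)⁻¹ * a) * h⁻¹) * h * a⁻¹ := by group
      _ = _ := by rw [← h']; group

theorem card_lang (τ : MulAut X) (Y : Subgroup X) {z c : X} (hc : c ∈ Y) (h : z = c * (τ c)⁻¹) :
    Nonempty ({y // y ∈ Y ∧ y * (τ y)⁻¹ = z} ≃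
      ↥(Y ⊓ (MulEquiv.toMonoidHom τ).eqLocus (MonoidHom.id X))) := by
  subst h
  refine ⟨⟨fun y => ⟨c⁻¹ * y, Y.mul_mem (Y.inv_mem hc) y.2.1, ?_⟩,
    fun u => ⟨c * u, Y.mul_mem hc u.2.1, ?_⟩, fun y => by simp, fun u => Subtype.ext (by simp)⟩⟩
  · change τ _ = c⁻¹ * y
    simpa using (shin_twist (σ := τ) y.1 c 1).1 (by simpa using y.2.2.symm)
  · have : τ u = u := u.2.2
    simp [this, mul_assoc]
end H11
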